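import Mathlib
import Cfsg.Agent.Lib.Stein.B2
import Cfsg.Agent.Lib.Stein.RootMap

/-!
# The commutator relations of `F₄(2)`
-/

set_option autoImplicit false

namespace CfsgLib.F42M

open Cfsg.Lie CfsgLib.RGD CfsgLib.Weyl CfsgLib.Chev CfsgLib.Stein

/-- the roots in the commutator formula in characteristic two -/
def cw (r s : ℕ) : List ℕ := (normT 2 (tComm fastF4 r s)).map Prod.fst

variable {K : Type*} [Field K] (hK : ∀ t : K, t = 0 ∨ t = 1) {G : Type*} [Group G]
include hK

theorem two_eq : (2 : K) = 0 := (hK 2).resolve_right fun h => one_ne_zero (α := K) (by linear_combination h)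

theorem wordG_eq {y : ℕ → K → G} (h0 : ∀ r < 48, y r 0 = 1) {r s : ℕ} (hr : r < 48) (hs : s < 48) (t u : K) :
    wordG y (chevF4.commWord K r s t u) = ((cw r s).map (y · (t * u))).prod := by
  have h1 := fun c => mem_commTerms_spec rtOKF4 (r := r) (s := s) hr hs (c := c)
  rw [commWord_eq, ← wordG_normT (p := 2) (two_eq hK) y _ _ _ fun c hc => h0 _ (h1 c hc).1, ← tComm_ofD,
    matchF4.ofD_eq, wordG, cw, List.map_map, List.map_map]
  refine congrArg _ (List.map_congr_left fun c hc => congrArg (y c.1) ?_)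
  obtain ⟨hc, h2⟩ := List.mem_filter.1 hc
  obtain ⟨c, hc, rfl⟩ := List.mem_map.1 hc
  obtain ⟨-, h3, h4, -⟩ := h1 c (by rwa [← tComm_ofD, matchF4.ofD_eq])
  have h5 : c.2.1 % (2 : ℕ) = 1 := by simp only [bne_iff_ne] at h2; omega
  have h6 : (-1 : K) = 1 := by linear_combination -two_eq hK
  simp only [evalT, h5]
  rcases hK t with rfl | rfl <;> rcases hK u with rfl | rfl <;> simp [h3.ne', h4.ne', h6]

open Classical in
theorem rel12_of {Y : ℕ → G} (h1 : ∀ r < 48, Y r * Y r = 1)
    (h2 : ∀ r < 48, ∀ s < 48, s ≠ r → s ≠ 47 - r → cm (Y s) (Y r) = ((cw r s).map Y).prod) :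
    Rel12 chevF4 fun r (t : K) => if t = 0 then 1 else Y r := by
  refine ⟨fun r hr t u => ?_, fun r hr s hs e1 e2 t u => ?_⟩
  · rcases hK t with rfl | rfl <;> rcases hK u with rfl | rfl <;> simp [one_add_one_eq_two, two_eq hK, h1 r hr]
  · rw [wordG_eq hK (by simp) hr hs]
    rcases hK t with rfl | rfl <;> rcases hK u with rfl | rfl
    iterate 3 simp
    simpa [cm] using h2 r hr s hs e1 (tablesOKF4.neg_eq r hr ▸ e2)

end CfsgLib.F42M
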