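import Mathlib
import Cfsg.Agent.Lib.LinP.Basic
import Cfsg.Agent.Lib.F42M.Tab
import Cfsg.Agent.Lib.F42M.Data

/-!
# The relations satisfied by the matrices of degree 52
-/

set_option autoImplicit false
set_option maxRecDepth 100000
set_option Elab.async false

namespace CfsgLib.F42M

open CfsgLib.Comput CfsgLib.LinP

/-- the commutator relation for a pair of roots -/
def eqn (r s : ℕ) : Eqn :=
  ([s + 1, r + 1, s + 1, r + 1], (cw r s).map (· + 1) ++ if (cw r s).length = 2 then [49] else [])

/-- test an equation -/
noncomputable def chk : Eqn → Bool := eqChk (stepL (appP ⟨3, 52, 17, 9, 171⟩ 52) ML) (idP ⟨3, 52, 17, 9, 171⟩)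

/-- the relations involving the root `r` -/
noncomputable def rowOK (r : ℕ) : Bool :=
  band (chk ([r + 1, 49], [49, r + 1])) (allLt (fun s => s == r || s == 47 - r || chk (eqn r s)) 48)

theorem ordML : allL (ordOK ⟨3, 52, 17, 9, 171⟩ 1) ML = true := by decide +kernel

theorem rows0 : allLt (fun i => rowOK (0 + i)) 4 = true := by decide +kernel
theorem rows1 : allLt (fun i => rowOK (4 + i)) 4 = true := by decide +kernel
theorem rows2 : allLt (fun i => rowOK (8 + i)) 4 = true := by decide +kernel
theorem rows3 : allLt (fun i => rowOK (12 + i)) 4 = true := by decide +kernel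
theorem rows4 : allLt (fun i => rowOK (16 + i)) 4 = true := by decide +kernel
theorem rows5 : allLt (fun i => rowOK (20 + i)) 4 = true := by decide +kernel
theorem rows6 : allLt (fun i => rowOK (24 + i)) 4 = true := by decide +kernel
theorem rows7 : allLt (fun i => rowOK (28 + i)) 4 = true := by decide +kernel
theorem rows8 : allLt (fun i => rowOK (32 + i)) 4 = true := by decide +kernel
theorem rows9 : allLt (fun i => rowOK (36 + i)) 4 = true := by decide +kernel
theorem rows10 : allLt (fun i => rowOK (40 + i)) 4 = true := by decide +kernel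
theorem rows11 : allLt (fun i => rowOK (44 + i)) 4 = true := by decide +kernel

theorem sqOK : allLt (fun r => chk ([r + 1, r + 1], [])) 48 = true := by decide +kernel

theorem rows (r : ℕ) (hr : r < 48) : rowOK r = true := by
  have h : ∀ k < 12, allLt (fun i => rowOK (4 * k + i)) 4 = true := fun k hk => by
    interval_cases k
    exacts [rows0, rows1, rows2, rows3, rows4, rows5, rows6, rows7, rows8, rows9, rows10, rows11]
  exact Nat.div_add_mod r 4 ▸ allLt_sound (h (r / 4) (by omega)) (r % 4) (by omega)

theorem par : Par.OK ⟨3, 52, 17, 9, 171⟩ := by decide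

theorem exists_mats : ∃ g : ℕ → GL (Fin 52) (ZMod 3), (∀ e, chk e = true → evL g e.1 = evL g e.2) ∧ evL g [49] ≠ 1 ∧
    ∀ r, 48 < r → g r = 1 :=
  ⟨glL 3 52 17 ML, fun _ h => (wm_glL par (by norm_num) ordML).holds h,
    evL_ne_one par (by norm_num) ordML (j := 0) (by norm_num) (by decide +kernel),
    fun r hr => List.getD_eq_default _ _ (by rw [List.length_map]; exact hr)⟩

end CfsgLib.F42M
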