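import Mathlib
import Cfsg.Agent.Lib.F42M.Tab

/-!
# Central extensions of `F₄(2)`
-/

set_option autoImplicit false

namespace CfsgLib.F42M

open Cfsg.Lie CfsgLib.RGD CfsgLib.Weyl CfsgLib.Chev CfsgLib.Stein CfsgLib.Schur

local notation "Rt" => Fin chevF4.nroots
local notation "Φ" => rootSys rtOKF4

theorem genOK : GenOK chevF4 := genOK_of_mem (by simp)

/-- a root -/
def rr (n : ℕ) (h : n < 48 := by norm_num) : Rt := ⟨n, h⟩

/-- representatives of the pairs of roots -/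
def reps : List (Rt × Rt) := [(rr 44, rr 3), (rr 44, rr 6), (rr 44, rr 14), (rr 44, rr 29), (rr 44, rr 32), (rr 44, rr 40),
  (rr 44, rr 44), (rr 44, rr 47), (rr 47, rr 0), (rr 47, rr 18), (rr 47, rr 23), (rr 47, rr 37), (rr 47, rr 41),
  (rr 47, rr 44), (rr 47, rr 46), (rr 47, rr 47)]

theorem pair_ind {P : Rt → Rt → Prop} (hP : ∀ w ∈ (Φ).W, ∀ r s, P r s → P (w r) (w s)) (h : ∀ p ∈ reps, P p.1 p.2)
    (r s : Rt) : P r s := by
  have key : ∀ r s : Rt, (r, s) ∈ reps ∨ ∃ i < 4, 48 * r.1 + s.1 < 48 * actT tTF4 i r + actT tTF4 i s := by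
    decide +kernel
  induction hn : 2304 - (48 * r.1 + s.1) using Nat.strong_induction_on generalizing r s with
  | _ n ih =>
    rcases key r s with h1 | ⟨i, hi, h1⟩
    · exact h _ h1
    · have e : ∀ r : Rt, ((Φ).s ⟨i, hi⟩ r : ℕ) = actT tTF4 i r := fun r =>
        tablesOKF4.refl_eq (by decide +kernel) i hi r r.2
      have h2 : r.1 < 48 := r.2
      have h3 : s.1 < 48 := s.2
      have := hP _ ((Φ).s_mem_W ⟨i, hi⟩) _ _ (ih _ (by rw [e, e]; omega) ((Φ).s ⟨i, hi⟩ r) ((Φ).s ⟨i, hi⟩ s) rfl)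
      rwa [(Φ).s_s, (Φ).s_s] at this

theorem ipE (r s : Rt) : ip Φ r s = ipT 4 48 tAF4 r s := ip_rootSys _ tablesOKF4 r s

/-- the commutator of the two root elements -/
def Ok (a b : Rt) (l : List ℕ) : Prop := a.1 ≠ b ∧ a.1 ≠ 47 - b ∧ cw b a = l

instance (a b : Rt) (l : List ℕ) : Decidable (Ok a b l) := by unfold Ok; infer_instance

/-- a sum of roots of the same length -/
def Dc (a b r : Rt) : Prop := RAdd Φ a b r ∧ ip Φ a a = ip Φ r r ∧ ip Φ b b = ip Φ r r

instance (a b r : Rt) : Decidable (Dc a b r) := decidable_of_iff ((∀ j : ℕ, j < 4 → rt chevF4 r j = rt chevF4 a j + rt chevF4 b j) ∧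
  ipT 4 48 tAF4 a a = ipT 4 48 tAF4 r r ∧ ipT 4 48 tAF4 b b = ipT 4 48 tAF4 r r) (by
    simp only [← ipE]; exact and_congr_left' ⟨fun h j => h j j.2, fun h j hj => h ⟨j, hj⟩⟩)

/-- the reflection in `d` moves `a` to `a'` -/
def Mv (d a a' : Rt) (k : ℤ) : Prop :=
  ipT 4 48 tAF4 d d * k = 2 * ipT 4 48 tAF4 d a ∧ ∀ j < 4, rt chevF4 a' j = rt chevF4 a j - k * rt chevF4 d j

instance (d a a' : Rt) (k : ℤ) : Decidable (Mv d a a' k) := by unfold Mv; infer_instance

variable {K : Type*} [Field K] (hK : ∀ t : K, t = 0 ∨ t = 1)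

local notation "S" => gSys K rtOKF4 genOK

theorem Mv.moves {d a a' : Rt} {k : ℤ} (h : Mv d a a' k) : Moves S ((S).n d 1) a a' := by
  refine moves_n (k := k) ?_ (fun j => h.2 j.1 j.2) one_ne_zero
  rw [ipE, ipE]; exact h.1

theorem Dc.ex {a b r : Rt} (h : Dc a b r) : Ex S a b r :=
  ex_of_ip (gSys_nondeg _ _) (fun k => by rw [ipE, ipE]; clear h; revert k r; decide +kernel) h.2.1 h.2.2 rfl h.1

include hK

theorem Ok.cm_eq {a b : Rt} {l : List ℕ} (h : Ok a b l) (t u : K) :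
    cm ((S).x a t) ((S).x b u) = (l.map (xG chevF4 K · (u * t))).prod :=
  (gSys_cm _ _ h.1 (tablesOKF4.neg_eq b b.2 ▸ h.2.1) t u).trans
    (h.2.2 ▸ wordG_eq hK (fun _ => (rel12_xG rtOKF4).zero) b.2 a.2 u t)

theorem Ok.cm {a b : Rt} (h : Ok a b []) : Cm S a b := fun t u => cm_eq_one_iff.1 (h.cm_eq hK t u)

theorem Ok.ex2 {a b k r : Rt} (h : Ok a b [k.1, r.1]) : Ex2 S a b k r := fun t ht =>
  ⟨t, t, ht, ht, fun u => by rw [h.cm_eq hK, mul_comm]; simp [Cover.sys_x]⟩

theorem primeF : PrimeF K := fun t => (hK t).elim (fun h => ⟨0, by simp [h]⟩) fun h => ⟨1, by simp [h]⟩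

variable {E : Type*} [Group E] {π : E →* chevF4.group K} (hπ : IsCentralExt π)
include hπ

theorem lc1 (a b : Rt) {r s : Rt} (h : Dc a b r ∧ Ok a s [] ∧ Ok b s []) : LC S π r s :=
  LC.of_ex hπ h.1.ex (h.2.1.cm hK) (h.2.2.cm hK)

theorem lc (r s : Rt) : 0 ≤ ip Φ r s → LC S π r s := by
  refine pair_ind (P := fun r s => 0 ≤ ip Φ r s → LC S π r s)
    (fun w hw r s h e => (h (by rwa [ip_apply hw] at e)).apply hπ hw) ?_ r s
  simp only [reps, List.forall_mem_cons, ipE]
  exact ⟨fun h => absurd h (by decide +kernel), fun h => absurd h (by decide +kernel),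
    fun h => absurd h (by decide +kernel), fun _ => LC.of_ex2_right hπ (Ok.ex2 hK (a := rr 19) (b := rr 46) (r := rr 42)
      (by decide +kernel)) (Ok.cm hK (by decide +kernel)) (Ok.cm hK (by decide +kernel))
      (lc1 hK hπ (rr 17) (rr 45) (by decide +kernel)),
    fun _ => lc1 hK hπ (rr 35) (rr 38) (by decide +kernel), fun _ => lc1 hK hπ (rr 34) (rr 39) (by decide +kernel),
    fun _ => lc1 hK hπ (rr 33) (rr 40) (by decide +kernel), fun _ => lc1 hK hπ (rr 33) (rr 40) (by decide +kernel),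
    fun h => absurd h (by decide +kernel), fun h => absurd h (by decide +kernel), fun h => absurd h (by decide +kernel),
    fun _ => lc1 hK hπ (rr 31) (rr 43) (by decide +kernel),
    fun _ => LC.of_ex2_left hπ (Ok.ex2 hK (a := rr 17) (b := rr 40) (k := rr 36)
      (by decide +kernel)) (Ok.cm hK (by decide +kernel)) (Ok.cm hK (by decide +kernel))
      (lc1 hK hπ (rr 19) (rr 39) (by decide +kernel)),
    fun _ => lc1 hK hπ (rr 24) (rr 46) (by decide +kernel), fun _ => lc1 hK hπ (rr 26) (rr 45) (by decide +kernel),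
    fun _ => lc1 hK hπ (rr 24) (rr 46) (by decide +kernel), by simp⟩

theorem compl1 (a b : Rt) {r : Rt} (h : Dc a b r ∧ 0 ≤ ipT 4 48 tAF4 r a ∧ 0 ≤ ipT 4 48 tAF4 r b)
    (h' : ∀ a' b', Dc a' b' r → (a' = a ∧ b' = b) ∨ (a' = b ∧ b' = a) ∨
      ∃ d : Rt, ipT 4 48 tAF4 r d = 0 ∧ ∃ k ∈ [(1 : ℤ), 2], Mv d a' a k ∧ Mv d b' b (-k)) :
    Compl S π (ComP S π Dc) r := by
  have : CharP K 2 := CharTwo.of_one_ne_zero_of_two_eq_zero one_ne_zero (two_eq hK)
  refine compl_comP (gSys_nondeg _ _) hπ (primeF hK) (p := 2) h.1 h.1.ex (lc hK hπ _ _ (ipE _ _ ▸ h.2.1))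
    (lc hK hπ _ _ (ipE _ _ ▸ h.2.2)) fun M hM a' b' e => ?_
  rcases h' a' b' e with ⟨rfl, rfl⟩ | ⟨rfl, rfl⟩ | ⟨d, h1, k, -, h2, h3⟩
  exacts [hM, hM.symm, hM.of_moves hπ h.1.ex (lc hK hπ _ _ (ipE _ _ ▸ h1.ge))
    (lc hK hπ _ _ (by rw [ip_neg_right, ipE, h1]; rfl)) h2.moves h3.moves]

theorem exists_lifts : ∃ y, Lifts S π y ∧ ∀ r e, ComP S π Dc r e → ∃ t, e = y r t := by
  have hP : Fam S π (ComP S π Dc) := fam_comP (fun w hw a b r h => ⟨h.1.apply hw, by
    simpa only [ip_apply hw] using h.2⟩) fun _ _ _ h => h.ex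
  have h1 := compl1 hK hπ (rr 33) (rr 40) (r := rr 44) (by decide +kernel) (by decide +kernel)
  have h2 := compl1 hK hπ (rr 24) (rr 46) (r := rr 47) (by decide +kernel) (by decide +kernel)
  refine hP.exists_lifts (gSys_nondeg _ _) hπ fun i => pair_ind (P := fun r _ => Compl S π (ComP S π Dc) r)
    (fun w hw r _ h => hP.compl_apply hπ h hw) ?_ _ (rr 0)
  simp only [reps, List.forall_mem_cons]
  exact ⟨h1, h1, h1, h1, h1, h1, h1, h1, h2, h2, h2, h2, h2, h2, h2, h2, by simp⟩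

omit hπ in
theorem exists_gen (hπ : Cfsg.IsStemExtension π) : ∃ z ∈ π.ker, z ^ 2 = 1 ∧ π.ker ≤ Subgroup.zpowers z := by
  have hc := centralExt_of_stem hπ
  obtain ⟨y, L, hy⟩ := exists_lifts hK hc
  have h1 : ∀ r s : Rt, 0 ≤ ipT 4 48 tAF4 r s → Commute (y r 1) (y s 1) := fun r s h =>
    lc hK hc r s (ipE r s ▸ h) _ _ _ _ (L.map _ _) (L.map _ _)
  have h2 : ∀ r, y r 1 ^ 2 = 1 := fun r => by rw [sq, ← L.add, one_add_one_eq_two, two_eq hK, L.zero]
  obtain ⟨z, e⟩ : ∃ z, cm (y (rr 6) 1) (y (rr 44) 1) = y (rr 29) 1 * y (rr 47) 1 * z := ⟨_, (mul_inv_cancel_left _ _).symm⟩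
  have hz : π z = 1 := by
    have := congrArg π e
    rw [map_cm, map_mul, map_mul, L.map, L.map, L.map, L.map, Ok.cm_eq hK (l := [29, 47]) (by decide +kernel)] at this
    simpa [Cover.sys_x, rr] using this
  have hN : (Subgroup.zpowers z).Normal := ⟨fun n hn g => by
    rwa [conj_of_ker hc (Subgroup.zpowers_le_of_mem (H := π.ker) hz hn)]⟩
  refine ⟨z, hz, ?_, fun k hk => (QuotientGroup.eq_one_iff k).1 ?_⟩
  · have := cm_pow_left' (a := y (rr 6) 1) (b := y (rr 44) 1) (e ▸ ((h1 _ _ (by decide +kernel)).mul_left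
      (h1 _ _ (by decide +kernel))).mul_left (hc.comm hz _).symm) 2
    rwa [h2, cm_one_left, e, Commute.mul_pow (hc.comm hz _), (h1 _ _ (by decide +kernel)).mul_pow, h2, h2, one_mul,
      one_mul, eq_comm] at this
  let θ := QuotientGroup.mk' (Subgroup.zpowers z)
  have hθ : Function.Surjective θ := QuotientGroup.mk'_surjective _
  let π' := QuotientGroup.lift (Subgroup.zpowers z) π (Subgroup.zpowers_le_of_mem hz)
  have hπ' : Cfsg.IsStemExtension π' := by
    refine ⟨fun g => (hπ.1 g).elim fun a e => ⟨θ a, e⟩, fun a ha => ?_, fun a ha => ?_⟩ <;> obtain ⟨a, rfl⟩ := hθ a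
    · exact Subgroup.mem_center_iff.2 fun b => (hθ b).elim fun b e => by rw [← e, ← map_mul, hc.comm ha, map_mul]
    · rw [commutator_def, ← Subgroup.map_top_of_surjective θ hθ, ← Subgroup.map_commutator]
      exact Subgroup.mem_map_of_mem _ (hπ.2.2 ha)
  have hc' := centralExt_of_stem hπ'
  have L' : Lifts S π' fun r t => θ (y r t) := ⟨L.map, fun r t u => by rw [L.add, map_mul], fun g hg r s t u e => by
    obtain ⟨g, rfl⟩ := hθ g
    rw [← L.conj g hg r s t u e, map_mul, map_mul, map_inv]⟩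
  have g1 : ∀ {r s}, GoodPair Φ y r s → GoodPair Φ (fun r t => θ (y r t)) r s := fun h t u => by
    rw [← map_cm, ← map_UUx y _ θ _ fun _ _ _ => rfl]
    exact Subgroup.mem_map_of_mem _ (h t u)
  have g2 : ∀ r s, ip Φ r r = 2 → ip Φ s s = 4 → ip Φ r s = -2 → GoodPair Φ (fun r t => θ (y r t)) r s := by
    refine pair_ind (fun w hw r s h => by
      simp only [ip_apply hw]; exact fun a b c => L'.goodPair_apply hc' (h a b c) hw) fun p hp a b c => ?_
    obtain rfl : p = (rr 44, rr 6) := by rw [ipE] at a b c; revert p; decide +kernel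
    intro t u
    dsimp only
    rcases hK t with rfl | rfl
    · rw [L'.zero, cm_one_right]; exact one_mem _
    rcases hK u with rfl | rfl
    · rw [L'.zero, cm_one_left]; exact one_mem _
    rw [← map_cm, e, map_mul, map_mul, show θ z = 1 from (QuotientGroup.eq_one_iff z).2 (Subgroup.mem_zpowers z), mul_one]
    exact mul_mem (mem_UUx (fun r t => θ (y r t)) (by exact ⟨1, 1, one_pos, one_pos, by decide +kernel⟩) _)
      (mem_UUx (fun r t => θ (y r t)) (by exact ⟨2, 1, two_pos, one_pos, by decide +kernel⟩) _)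
  have g3 : ∀ r s : Rt, 0 ≤ ipT 4 48 tAF4 r s → GoodPair Φ (fun r t => θ (y r t)) r s := fun r s h =>
    g1 (L.goodPair_of_lc (lc hK hc r s (ipE r s ▸ h)))
  have g4 : ∀ r s k, Dc s r k → GoodPair Φ (fun r t => θ (y r t)) r s := fun r s k h =>
    g1 (L.goodPair_of_comP h.1.symm.isSum h (hy k))
  have g5 : ∀ r s, s ≠ (Φ).neg r → GoodPair Φ (fun r t => θ (y r t)) r s := by
    refine pair_ind (fun w hw r s h e => L'.goodPair_apply hc' (h fun e' => e (by rw [e', (Φ).apply_neg hw])) hw) ?_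
    simp only [reps, List.forall_mem_cons]
    exact ⟨fun h => absurd (Fin.ext (by decide +kernel)) h, fun _ => g2 _ _ (by rw [ipE]; decide +kernel)
      (by rw [ipE]; decide +kernel) (by rw [ipE]; decide +kernel), fun _ => g4 _ _ (rr 40) (by decide +kernel),
      fun _ => g3 _ _ (by decide +kernel), fun _ => g3 _ _ (by decide +kernel), fun _ => g3 _ _ (by decide +kernel),
      fun _ => g3 _ _ (by decide +kernel), fun _ => g3 _ _ (by decide +kernel),
      fun h => absurd (Fin.ext (by decide +kernel)) h, fun _ => (g2 _ _ (by rw [ipE]; decide +kernel)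
      (by rw [ipE]; decide +kernel) (by rw [ipE]; decide +kernel)).symm, fun _ => g4 _ _ (rr 46) (by decide +kernel),
      fun _ => g3 _ _ (by decide +kernel), fun _ => g3 _ _ (by decide +kernel), fun _ => g3 _ _ (by decide +kernel),
      fun _ => g3 _ _ (by decide +kernel), fun _ => g3 _ _ (by decide +kernel), by simp⟩
  have : Finite K := Finite.of_surjective (fun b : Bool => if b then (1 : K) else 0) fun t =>
    (hK t).elim (fun h => ⟨false, h.symm⟩) fun h => ⟨true, h.symm⟩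
  exact Subgroup.mem_bot.1 <| (L'.ker_eq_bot ⟨fun r _ => L'.add r, fun r s _ _ _ h => g5 r s h⟩ (gSys_nondeg _ _) ((cover_id rtOKF4).sys_grp _ _)
    (gSys_r3 _ _) (fun _ t _ _ i _ => Units.ext ((hK _).resolve_left (t i).ne_zero)) hπ').le (show π' (θ k) = 1 from hk)

end CfsgLib.F42M
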