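import Mathlib
import Cfsg.Agent.Lib.F42M.Up
import Cfsg.Agent.Lib.F42M.Chk
import Cfsg.Agent.Lib.MultC.Bound
import Cfsg.Agent.Lib.Stein.Center
import Cfsg.Agent.Lib.Stein.MultChev

/-!
# The Schur multiplier of `F₄(2)` from a double cover
-/

set_option autoImplicit false

namespace CfsgLib.F42M

open Cfsg.Lie CfsgLib.RGD CfsgLib.Weyl CfsgLib.Chev CfsgLib.Stein CfsgLib.Schur

variable {K : Type*} [Field K] [Finite K] (hK : ∀ t : K, t = 0 ∨ t = 1)
include hK

theorem exists_hom {G : Type*} [Group G] {Y : ℕ → G} (h1 : ∀ r < 48, Y r * Y r = 1)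
    (h2 : ∀ r < 48, ∀ s < 48, s ≠ r → s ≠ 47 - r → cm (Y s) (Y r) = ((cw r s).map Y).prod) :
    ∃ φ : chevF4.group K →* G, ∀ r < 48, φ (xG chevF4 K r 1) = Y r := by
  obtain ⟨θ, C⟩ := exists_cover_cover (K := K) rtOKF4
  obtain ⟨f, hf⟩ := exists_hom_cover rtOKF4 (rel12_of hK h1 h2)
  obtain ⟨φ, hφ⟩ := C.exists_descend rtOKF4 genOK f fun z hz => by
    rw [C.center_eq_bot rtOKF4 genOK (C.rel3 rtOKF4 genOK) (fun k j => (([[2, 3, 2, 1], [3, 6, 4, 2], [4, 8, 6, 3],
      [2, 4, 3, 2]] : List (List ℤ)).getD k []).getD j 0) (by decide +kernel), Subgroup.mem_bot] at hz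
    rw [hz, map_one]
  exact ⟨φ, fun r hr => by rw [← C.map r hr, hφ, hf r hr, if_neg one_ne_zero]⟩

theorem mult_of {E : Type*} [Group E] {Y : ℕ → E} {z : E} (hz : z ∈ Subgroup.center E) (h0 : z ≠ 1)
    (h1 : ∀ r < 48, Y r * Y r = 1) (h2 : ∀ r < 48, ∀ s < 48, s ≠ r → s ≠ 47 - r →
      cm (Y s) (Y r) = ((cw r s).map Y).prod * if (cw r s).length = 2 then z else 1) :
    Cfsg.HasCyclicSchurMultiplier (chevF4.group K) 2 := by
  have := (cover_id (K := K) rtOKF4).finite rtOKF4 genOK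
  have hle : Subgroup.zpowers z ≤ Subgroup.center E := Subgroup.zpowers_le_of_mem hz
  have hN : (Subgroup.zpowers z).Normal := ⟨fun n hn g => by
    rwa [Subgroup.mem_center_iff.1 (hle hn), mul_inv_cancel_right]⟩
  let π := QuotientGroup.mk' (Subgroup.zpowers z)
  have hπ : IsCentralExt π := ⟨QuotientGroup.mk'_surjective _, (QuotientGroup.ker_mk' _).trans_le hle⟩
  have hz1 : π z = 1 := (QuotientGroup.eq_one_iff z).2 (Subgroup.mem_zpowers z)
  obtain ⟨φ, hφ⟩ := exists_hom hK (Y := fun r => π (Y r)) (fun r hr => by rw [← map_mul, h1 r hr, map_one])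
    fun r hr s hs e1 e2 => by
      rw [← map_cm, h2 r hr s hs e1 e2, map_mul, map_list_prod, List.map_map, apply_ite π, hz1, map_one, ite_self,
        mul_one]; rfl
  have hσ := isCentralExt_pbFst φ hπ
  refine mult_of_bounds (fun Γ _ _ σ hσ => ?_) hσ ?_
  · obtain ⟨c, hc, h3, h4⟩ := exists_gen hK hσ
    obtain ⟨f, hf⟩ := MultC.exists_zmod_hom (a := 2) (⟨c, hc⟩ : σ.ker) (Subtype.ext h3)
    refine ⟨f, fun k => ?_⟩
    obtain ⟨n, hn⟩ := h4 k.2
    exact ⟨Multiplicative.ofAdd 1 ^ n, by rw [map_zpow, hf]; exact Subtype.ext hn⟩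
  have := hσ.finite_stemKer
  let y : Fin chevF4.nroots → pullback φ π := fun r => ⟨(xG chevF4 K r 1, Y r), hφ r r.2⟩
  have e : ∀ a b l, Ok a b l → (cm (y a) (y b)).1 = ((l.map (xG chevF4 K · 1)).prod,
      (l.map Y).prod * if l.length = 2 then z else 1) := fun a b l h => Prod.ext
    ((h.cm_eq hK 1 1).trans (by rw [one_mul])) (h.2.2 ▸ h2 b b.2 a a.2 h.1 h.2.1)
  have e1 := e (rr 10) (rr 40) [29] (by decide +kernel)
  have e2 := e (rr 24) (rr 46) [47] (by decide +kernel)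
  have e3 := e (rr 6) (rr 44) [29, 47] (by decide +kernel)
  have e4 : ((cm (y (rr 10)) (y (rr 40)) * cm (y (rr 24)) (y (rr 46)))⁻¹ * cm (y (rr 6)) (y (rr 44))).1 = (1, z) := by
    rw [Subgroup.coe_mul, Subgroup.coe_inv, Subgroup.coe_mul, e1, e2, e3]; simp [mul_assoc]
  rw [card_mult_zmod]
  refine Finite.one_lt_card_iff_nontrivial.2 ⟨⟨_, mem_stemKer.2 ⟨(pbFst_apply ..).trans (congrArg Prod.fst e4), ?_⟩⟩, 1, fun h => h0 ?_⟩
  · exact mul_mem (inv_mem (mul_mem (cm_mem_commutator trivial trivial) (cm_mem_commutator trivial trivial)))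
      (cm_mem_commutator trivial trivial)
  · exact (congrArg Prod.snd e4).symm.trans (congrArg (·.1.1.2) h)

open CfsgLib.Comput in
theorem mult_of_chk {G : Type*} [Group G] {g : ℕ → G} (h1 : ∀ e, chk e = true → evL g e.1 = evL g e.2)
    (h2 : evL g [49] ≠ 1) (h3 : ∀ r, 48 < r → g r = 1) : Cfsg.HasCyclicSchurMultiplier (chevF4.group K) 2 := by
  have e : ∀ r < 49, ev g (r + 1) = g r := fun r hr => ev_letter _ (by omega)
  have h4 : ∀ r < 48, g r * g r = 1 := fun r hr => by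
    simpa only [evL_two, evL_nil, e r (by omega)] using h1 _ (allLt_sound sqOK r hr)
  have h5 : ∀ r, g r ∈ Subgroup.centralizer {g 48} := fun r => Subgroup.mem_centralizer_singleton_iff.2 <| by
    rcases lt_trichotomy r 48 with hr | rfl | hr
    · simpa only [evL_two, e r (by omega), e 48 (by omega)] using h1 _ (band_eq_true.1 (rows r hr)).1
    · rfl
    · rw [h3 r hr, one_mul, mul_one]
  have h6 : ∀ r < 48, ∀ s < 48, ∀ k ∈ cw r s, k < 49 := by decide +kernel
  refine mult_of hK (Y := fun r => (⟨g r, h5 r⟩ : Subgroup.centralizer {g 48})) (z := ⟨g 48, h5 48⟩)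
    (Subgroup.mem_center_iff.2 fun a => Subtype.ext (Subgroup.mem_centralizer_singleton_iff.1 a.2))
    (fun h => h2 ((evL_one _ _).trans ((e 48 (by omega)).trans (congrArg Subtype.val h)))) (fun r hr => Subtype.ext (h4 r hr))
    fun r hr s hs e1 e2 => Subgroup.subtype_injective _ ?_
  have h7 := allLt_sound (band_eq_true.1 (rows r hr)).2 s hs
  simp only [Bool.or_eq_true, beq_iff_eq, e1, e2, false_or] at h7
  have h8 := h1 _ h7
  rw [eqn, evL_append, evL_cons, evL_three, e r (by omega), e s (by omega), apply_ite (evL g), evL_one,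
    e 48 (by omega), evL_nil, evL, List.map_map] at h8
  rw [map_cm, map_mul, map_list_prod, List.map_map, apply_ite (Subgroup.subtype _), map_one]
  change cm (g s) (g r) = ((cw r s).map g).prod * if _ then g 48 else 1
  rw [cm, inv_eq_of_mul_eq_one_left (h4 r hr), inv_eq_of_mul_eq_one_left (h4 s hs), mul_assoc, mul_assoc,
    ← mul_assoc (g r), h8, List.map_congr_left (f := ev g ∘ (· + 1)) (g := g) fun k hk => e k (h6 r hr s hs k hk)]

theorem mult : Cfsg.HasCyclicSchurMultiplier (chevF4.group K) 2 :=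
  exists_mats.elim fun _ h => mult_of_chk hK h.1 h.2.1 h.2.2

end CfsgLib.F42M
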